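import Mathlib

/-! # Arithmetic of the index formula -/

set_option autoImplicit false

namespace Cfsg.Agent.B84V

variable {q n a : ℤ}

theorem ar_ne (h3 : 3 ≤ q) (E : n * (a - q) ^ 2 = q * (q + 1) ^ 2 * (q - 1) * (a * (a - 1))) : a - q ≠ 0 := fun e => by
  obtain rfl : a = q := sub_eq_zero.1 e
  have : 0 < a * (a + 1) ^ 2 * (a - 1) * (a * (a - 1)) := by
    have : 0 < a - 1 := by omega
    have : 0 < a := by omega
    positivity
  rw [← E] at this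
  simp at this

theorem ar_eight (hq : q % 4 = 3) (o : Odd n) (E : n * (a - q) ^ 2 = q * (q + 1) ^ 2 * (q - 1) * (a * (a - 1))) :
    8 ∣ a - q := by
  obtain ⟨k, hk⟩ : ∃ k, q = 4 * k - 1 := ⟨q / 4 + 1, by omega⟩
  obtain ⟨m, hm⟩ := Int.even_mul_pred_self a
  refine (Int.pow_dvd_pow_iff two_ne_zero).1 (IsCoprime.dvd_of_dvd_mul_left (y := n) ?_
    ⟨q * k ^ 2 * (2 * k - 1) * m, by rw [E, hm, hk]; ring⟩)
  rw [show (8 : ℤ) ^ 2 = 2 ^ 6 by norm_num]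
  exact (Int.isCoprime_two_left.2 o).pow_left

theorem ar_lt (h3 : 3 ≤ q) (hq : q % 4 = 3) (o : Odd n)
    (E : n * (a - q) ^ 2 = q * (q + 1) ^ 2 * (q - 1) * (a * (a - 1))) (ha : 3 * q - 2 ≤ a ∨ a < 0) :
    n < 3 * q ^ 2 * (q ^ 2 - q + 1) := by
  have e8 := ar_eight hq o E
  have d0 := sq_pos_of_ne_zero (ar_ne h3 E)
  refine lt_of_mul_lt_mul_right ?_ d0.le
  rw [E]
  obtain ⟨r, rfl⟩ : ∃ r, q = r + 3 := ⟨q - 3, by ring⟩
  have r0 : 0 ≤ r := by omega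
  rcases ha with ha | ha
  · obtain ⟨d, rfl⟩ : ∃ d, a = d + (r + 3) := ⟨a - (r + 3), by ring⟩
    rw [add_sub_cancel_right] at *
    by_cases h : r = 0
    · subst h
      obtain ⟨e, rfl⟩ : ∃ e, d = e + 8 := ⟨d - 8, by ring⟩
      have : 0 ≤ e := by omega
      nlinarith
    by_cases h' : r = 4
    · subst h'
      obtain ⟨e, rfl⟩ : ∃ e, d = e + 16 := ⟨d - 16, by ring⟩
      have : 0 ≤ e := by omega
      nlinarith
    have r8 : 8 ≤ r := by omega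
    have k1 : 2 * (d + (r + 3) - 1) ≤ 3 * d := by omega
    have k2 : 2 * ((r + 3 - 1) * (d + (r + 3))) ≤ (3 * (r + 3) - 2) * d := by nlinarith
    have k3 := mul_le_mul k1 k2 (by nlinarith) (by omega)
    have k4 : (r + 3 + 1) ^ 2 * (3 * (r + 3) - 2) < 4 * (r + 3) * ((r + 3) ^ 2 - (r + 3) + 1) := by nlinarith
    have k5 := mul_le_mul_of_nonneg_left k3 (show 0 ≤ (r + 3) * (r + 3 + 1) ^ 2 by positivity)
    have k6 := mul_lt_mul_of_pos_left k4 (show 0 < 3 * (r + 3) * d ^ 2 by positivity)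
    nlinarith
  · have k1 : a * (a - 1) ≤ (a - (r + 3)) ^ 2 := by nlinarith
    have k2 : (r + 3) * (r + 3 + 1) ^ 2 * (r + 3 - 1) < 3 * (r + 3) ^ 2 * ((r + 3) ^ 2 - (r + 3) + 1) := by
      have := pow_nonneg r0 3
      have := pow_nonneg r0 4
      nlinarith
    exact (mul_le_mul_of_nonneg_left k1 (by have : 0 ≤ r + 3 - 1 := by omega
                                            positivity)).trans_lt (mul_lt_mul_of_pos_right k2 d0)

theorem ar_three (o : Odd n) (E : n * (a - 3) ^ 2 = 3 * (3 + 1) ^ 2 * (3 - 1) * (a * (a - 1))) (h3 : 3 ∣ n)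
    (h9 : ¬9 ∣ n) : n = 165 := by
  obtain ⟨b, hb⟩ := ar_eight (by norm_num) o E
  obtain ⟨m, rfl⟩ := h3
  obtain rfl : a = 8 * b + 3 := by omega
  have k : m * b ^ 2 = 32 * b ^ 2 + 20 * b + 3 := by linarith
  have d : b ∣ 3 := ⟨m * b - 32 * b - 20, by linear_combination -k⟩
  have := Int.le_of_dvd (by norm_num) d
  have := Int.le_of_dvd (by norm_num) ((neg_dvd).2 d)
  have : -3 ≤ b := by omega
  interval_cases b <;> omega

theorem ar_c (h3 : 3 ≤ q) (E : n * (a - q) ^ 2 = q * (q + 1) ^ 2 * (q - 1) * (a * (a - 1))) :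
    ∃ c, c * (a - q) = q * (q ^ 2 - 1) ∧ n = (q ^ 2 - 1 + c) * (q ^ 2 + q + c) := by
  have d0 := ar_ne h3 E
  obtain ⟨d, rfl⟩ : ∃ d, a = d + q := ⟨a - q, by ring⟩
  rw [add_sub_cancel_right] at *
  obtain ⟨e, he⟩ := (Int.pow_dvd_pow_iff two_ne_zero).1 (show d ^ 2 ∣ (2 * (q * (q ^ 2 - 1)) +
    (2 * q ^ 2 + q - 1) * d) ^ 2 from ⟨(2 * q ^ 2 + q - 1) ^ 2 - 4 * ((q ^ 2 - 1) * (q ^ 2 + q) - n), by
      linear_combination -4 * E⟩)
  obtain ⟨f, rfl⟩ : ∃ f, e = f + (2 * q ^ 2 + q - 1) := ⟨e - _, (sub_add_cancel _ _).symm⟩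
  have k : 4 * n = (2 * (q ^ 2 - 1) + f) * (2 * (q ^ 2 + q) + f) := mul_right_cancel₀ (pow_ne_zero 2 d0) (by
    linear_combination 4 * E + (2 * (q * (q ^ 2 - 1)) + (2 * q ^ 2 + q - 1) * d + d * (f + (2 * q ^ 2 + q - 1))) * he)
  obtain ⟨c, rfl⟩ : Even f := (Int.even_pow' two_ne_zero).1
    ⟨2 * n - 2 * (q ^ 2 - 1) * (q ^ 2 + q) - (2 * q ^ 2 + q - 1) * f, by linear_combination -k⟩
  exact ⟨c, by linarith, by linarith⟩

/-- the case where the index is prime to `q` -/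
theorem ar_cop (h3 : 3 ≤ q) (hq : q % 4 = 3) (o : Odd n)
    (E : n * (a - q) ^ 2 = q * (q + 1) ^ 2 * (q - 1) * (a * (a - 1))) (co : IsCoprime q n) :
    q ∣ a ∧ 7 * q ≤ |a| ∧ ∃ c e, c * (8 * e) = q ^ 2 - 1 ∧ n = (q ^ 2 - 1 + c) * (q ^ 2 + q + c) := by
  obtain ⟨c, e1, e2⟩ := ar_c h3 E
  have e8 := ar_eight hq o E
  have d0 := ar_ne h3 E
  have : IsCoprime q c := by
    have := (e2 ▸ co).of_mul_right_right
    rwa [show q ^ 2 + q + c = c + q * (q + 1) by ring, IsCoprime.add_mul_left_right_iff] at this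
  obtain ⟨e, he⟩ := this.dvd_of_dvd_mul_left ⟨_, e1⟩
  rw [he] at e8 d0 e1
  obtain ⟨f, rfl⟩ := (show IsCoprime (2 ^ 3) q from (Int.isCoprime_two_left.2 ⟨q / 2, by omega⟩).pow_left
    ).dvd_of_dvd_mul_left e8
  obtain rfl : a = q * (8 * f + 1) := by linear_combination he
  refine ⟨⟨_, rfl⟩, ?_, c, f, mul_left_cancel₀ (show q ≠ 0 by omega) (by linear_combination e1), e2⟩
  have : f ≠ 0 := by rintro rfl; simp at d0
  rw [abs_mul, abs_of_pos (by omega), mul_comm]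
  exact mul_le_mul_of_nonneg_left (le_abs.2 (by omega)) (by omega)

theorem ar_small {c e : ℤ} (hq : q = 3 ∨ q = 7 ∨ q = 11 ∨ q = 31) (o : Odd n) (e1 : c * (8 * e) = q ^ 2 - 1)
    (e2 : n = (q ^ 2 - 1 + c) * (q ^ 2 + q + c)) (m : n % q = 1) (h : 16 ∣ n - 1 + q * (q + 1)) : False := by
  have oc : Odd c := by
    have := (Int.odd_mul.1 (e2 ▸ o)).1
    rcases hq with rfl | rfl | rfl | rfl <;> simp only [Int.odd_iff] at this ⊢ <;> omega
  have d : c ∣ 15 := by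
    refine ((Int.isCoprime_two_right.2 oc).pow_right (n := 6)).dvd_of_dvd_mul_left ?_
    rcases hq with rfl | rfl | rfl | rfl
    exacts [⟨960 * e, by linarith⟩, ⟨160 * e, by linarith⟩, ⟨64 * e, by linarith⟩, ⟨8 * e, by linarith⟩]
  have := Int.le_of_dvd (by norm_num) d
  have := Int.le_of_dvd (by norm_num) ((neg_dvd).2 d)
  have : -15 ≤ c := by omega
  subst e2
  rcases hq with rfl | rfl | rfl | rfl <;> interval_cases c <;> omega

end Cfsg.Agent.B84V
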