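import Cfsg.Agent.B84.Loc

/-! # Regular characters of odd order of the torus -/

set_option autoImplicit false

namespace Cfsg.Agent.B84V

open Cfsg.Agent.GT Cfsg.Agent.Cl Cfsg.Agent.B84 Subgroup Function

theorem regular {T : Type*} [Group T] [Finite T] [IsMulCommutative T] (r s : MulAut T) (h3 : r * r * r = 1)
    (hrs : r * s = s * r * r) (hD : ∀ y, r y = y → y * s y = 1) {x : T} (ox : Odd (orderOf x)) (hx : r x ≠ x) :
    ∃ (l : T →* ℂˣ) (m : ℕ), Odd m ∧ l ^ m = 1 ∧ (∃ y, l (r y) ≠ l y) ∧ (∃ y, l (s y) ≠ l y) ∧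
      (∃ y, l ((s * r) y) ≠ l y) ∧ ∃ y, l ((s * r * r) y) ≠ l y := by
  obtain ⟨j, m, o, e⟩ := Nat.exists_eq_two_pow_mul_odd (Nat.card_pos (α := T)).ne'
  have sep : ∀ z : T, Odd (orderOf z) → z ≠ 1 → ∃ l : T →* ℂˣ, l ^ m = 1 ∧ l z ≠ 1 := fun z oz n => by
    open scoped IsMulCommutative in
    obtain ⟨χ, hχ⟩ := CommGroup.exists_apply_ne_one_of_hasEnoughRootsOfUnity T ℂ n
    refine ⟨χ ^ 2 ^ j, MonoidHom.ext fun y => ?_, fun k => hχ ?_⟩
    · rw [MonoidHom.pow_apply, MonoidHom.pow_apply, ← pow_mul, ← e, ← map_pow, pow_card_eq_one', map_one]; rfl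
    · exact orderOf_eq_one_iff.1 (Nat.eq_one_of_dvd_coprimes ((Nat.coprime_two_right.2 oz).pow_right j)
        (orderOf_map_dvd _ _) (orderOf_dvd_of_pow_eq_one k))
  by_contra n
  replace n : ∀ l : T →* ℂˣ, l ^ m = 1 → (∀ y, l (r y) = l y) ∨ (∀ y, l (s y) = l y) ∨
      (∀ y, l ((s * r) y) = l y) ∨ ∀ y, l ((s * r * r) y) = l y := fun l hl => by
    by_contra k
    push Not at k
    exact n ⟨l, m, o, hl, k⟩
  have sq : ∀ l : T →* ℂˣ, l ^ m = 1 → ∀ a b, l a * l a = l b * l b → l a = l b := fun l hl a b k => by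
    obtain ⟨i, rfl⟩ := o
    have p : ∀ a, l a = ((l a * l a) ^ i)⁻¹ := fun a => eq_inv_of_mul_eq_one_right (by
      rw [← sq, ← pow_mul, ← pow_succ]; exact DFunLike.congr_fun hl a)
    rw [p a, p b, k]
  have r3 : ∀ y, r (r (r y)) = y := DFunLike.congr_fun h3
  have key : ∀ l : T →* ℂˣ, l ^ m = 1 → ∀ y, l (r (r y)) * l y = l (r y) * l (r y) := fun l hl => by
    have triv : (∀ y, l (r y) = l y) → ∀ y, l (r (r y)) * l y = l (r y) * l (r y) := fun k y => by simp only [k]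
    have main : ∀ τ : MulAut T, r * τ = τ * r * r → (∀ y, l (τ y) = l y) → (∀ ν : T →* ℂˣ, ν ^ m = 1 →
        (∀ y, ν (r y) = ν y) ∨ (∀ y, ν (τ y) = ν y) ∨ (∀ y, ν ((τ * r) y) = ν y) ∨ ∀ y, ν ((τ * r * r) y) = ν y) →
        ∀ y, l (r (r y)) * l y = l (r y) * l (r y) := fun τ rt lt c => by
      have q : ∀ y, l (r (τ y)) = l (r (r y)) := fun y => (congrArg l (DFunLike.congr_fun rt y)).trans (lt _)
      have lm : ∀ y, l y ^ m = 1 := DFunLike.congr_fun hl
      have := c (l * l * l.comp r.toMonoidHom) (MonoidHom.ext fun y => by simp [mul_pow, lm])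
      simp only [MonoidHom.mul_apply, MonoidHom.comp_apply, MulEquiv.coe_toMonoidHom, MulAut.mul_apply, q, lt, r3,
        mul_right_inj, mul_left_inj] at this
      rcases this with k | k | k | k
      · intro y
        have := k (r y)
        rw [r3, mul_assoc, mul_comm (l (r y) * _), mul_right_inj] at this
        exact this
      · exact triv fun y => by simpa only [r3] using k (r (r y))
      · refine triv fun y => ?_
        have := k y
        rwa [mul_comm (l y * _), mul_assoc, mul_right_inj, mul_left_inj] at this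
      · exact triv fun y => by simpa only [r3] using (sq l hl _ _ (k (r y))).symm
    have a : s * r * r * r = s := by rw [mul_assoc, mul_assoc, ← mul_assoc r, h3, mul_one]
    rcases n l hl with k | k | k | k
    · exact triv k
    · exact main s hrs k n
    · exact main _ (by rw [← mul_assoc, hrs]) k fun ν hν => by rw [a]; have := n ν hν; tauto
    · exact main _ (by rw [← mul_assoc, ← mul_assoc, hrs]) k fun ν hν => by rw [a]; have := n ν hν; tauto
  have odd : ∀ z : T, Odd (orderOf z) → Odd (orderOf (r z * z⁻¹)) := fun z oz =>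
    oz.of_dvd_nat (orderOf_dvd_of_pow_eq_one (by
      rw [Commute.mul_pow (mul_comm' _ _), ← map_pow, inv_pow, pow_orderOf_eq_one]; simp))
  have fx : r (r x * x⁻¹) = r x * x⁻¹ := by
    by_contra k
    obtain ⟨l, hl, k⟩ := sep _ (odd _ (odd x ox)) (mt mul_inv_eq_one.1 k)
    apply k
    simp only [map_mul, map_inv, mul_inv_rev, inv_inv]
    rw [eq_mul_inv_of_mul_eq (key l hl x)]
    generalize l (r x) = u
    generalize l x = v
    simp only [mul_comm u, mul_left_comm u, mul_assoc, mul_inv_cancel_left, inv_mul_cancel_left, mul_inv_cancel]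
    simp [mul_assoc]
  obtain ⟨l, hl, k⟩ := sep _ (odd x ox) (mt mul_inv_eq_one.1 hx)
  have fin : l (s (r x * x⁻¹)) ≠ l (r x * x⁻¹) := fun e => k (sq l hl _ 1 (by
    nth_rw 2 [← e]
    rw [← map_mul, hD _ fx, map_one, mul_one]) |>.trans (map_one l))
  rcases n l hl with c | c | c | c
  · exact k (by simp [c])
  · exact fin (c _)
  · exact fin (by simpa only [MulAut.mul_apply, fx] using c (r x * x⁻¹))
  · exact fin (by simpa only [MulAut.mul_apply, fx] using c (r x * x⁻¹))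

variable {F G : Type*} [Field F] [Fintype F] [Group G] [Finite G] {φ : GL (Fin 2) F →* G} {g : G}

theorem exists_regular (h : Hy φ g) (hD : D1 φ g) {a b : Fˣ} (o : Odd (orderOf (φ (dg a b))))
    (n : ¬Commute g (φ (dg a b))) : ∃ (lam : Fˣ × Fˣ →* ℂˣ) (m : ℕ), Odd m ∧ lam ^ m = 1 ∧
      (∀ a b, φ (dg a b) = 1 → lam (a, b) = 1) ∧ ∀ k, k = g ∨ k = φ ww ∨ k = φ ww * g ∨ k = φ ww * g * g →
        ∃ a b c d, k * φ (dg a b) * k⁻¹ = φ (dg c d) ∧ lam (a, b) ≠ lam (c, d) := by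
  have : IsMulCommutative (Tor φ) := range_isMulCommutative _
  let ρ := (Tor φ).normalizerMonoidHom
  let r : N[Tor φ] := ⟨g, conj_eq_self_iff.1 h.g_Tor⟩
  let s : N[Tor φ] := ⟨φ ww, conj_eq_self_iff.1 w_Tor⟩
  have ap : ∀ k y, (ρ k y).1 = k * y * k.1⁻¹ := fun _ _ => rfl
  have one : ∀ k : N[Tor φ], (∃ a b, k.1 = φ (dg a b)) → ρ k = 1 := fun k ⟨a, b, e⟩ => MulEquiv.ext fun y =>
    Subtype.ext (by
      obtain ⟨c, d, e'⟩ := mem_Tor.1 y.2
      rw [ap, e, MulAut.one_apply, e', Hy.T_comm.eq, mul_inv_cancel_right])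
  have h3 : ρ r * ρ r * ρ r = 1 := by
    rw [← map_mul, ← map_mul]; exact one _ (pow_three' g ▸ h.g_cube :)
  have h2 : ρ s * ρ s = 1 := by
    rw [← map_mul]; exact one _ ⟨1, 1, show φ ww * φ ww = _ by rw [← map_mul, ww_mul, dg_one]⟩
  have h4 : ρ s * ρ r * (ρ s * ρ r) = 1 := by rw [← map_mul, ← map_mul]; exact one _ h.wg_sq
  have h5 : ρ r * ρ s = ρ s * ρ r * ρ r := by
    calc ρ r * ρ s = ρ s * ρ s * (ρ r * ρ s) * (ρ r * ρ r * ρ r) := by rw [h2, h3, one_mul, mul_one]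
      _ = ρ s * (ρ s * ρ r * (ρ s * ρ r)) * ρ r * ρ r := by simp only [mul_assoc]
      _ = _ := by rw [h4, mul_one]
  have w : ∀ a b, φ ww * φ (dg a b) * (φ ww)⁻¹ = φ (dg b a) := fun a b => by
    rw [← map_inv, ← map_mul, ← map_mul, ww_inv, ww_dg]
  obtain ⟨l, m, om, hl, k⟩ := regular (ρ r) (ρ s) h3 h5 (fun y e => by
    have e2 : ρ r (ρ s y) = ρ s y := (DFunLike.congr_fun h5 y).trans (by simp only [MulAut.mul_apply, e])
    have e3 := congrArg Subtype.val (show ρ r (y * ρ s y) = y * ρ s y by rw [map_mul, e, e2])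
    obtain ⟨c, d, e'⟩ := mem_Tor.1 y.2
    have : (y * ρ s y).1 = φ (dg (c * d) (c * d)) := by
      rw [coe_mul, ap, e', w, ← map_mul, dg_mul, mul_comm d]
    rw [ap, this] at e3
    exact Subtype.ext (this.trans (hD _ (mul_inv_eq_iff_eq_mul.1 e3)))) (x := ⟨_, dg_mem a b⟩)
    (by rwa [← orderOf_coe]) fun e => n (mul_inv_eq_iff_eq_mul.1 (congrArg Subtype.val e))
  refine ⟨l.comp (φ.comp dgH).rangeRestrict, m, om, MonoidHom.ext fun p => DFunLike.congr_fun hl _, fun a b e =>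
    (congrArg l (Subtype.ext e)).trans l.map_one, ?_⟩
  have fin : ∀ k : N[Tor φ], (∃ y, l (ρ k y) ≠ l y) → ∃ a b c d, k.1 * φ (dg a b) * k.1⁻¹ = φ (dg c d) ∧
      l.comp (φ.comp dgH).rangeRestrict (a, b) ≠ l.comp (φ.comp dgH).rangeRestrict (c, d) := fun k ⟨y, e⟩ => by
    obtain ⟨a, b, e1⟩ := mem_Tor.1 y.2
    obtain ⟨c, d, e2⟩ := mem_Tor.1 (ρ k y).2
    exact ⟨a, b, c, d, by rw [← e1, ← e2, ap], fun q => e ((congrArg l (Subtype.ext e2)).trans
      (q.symm.trans (congrArg l (Subtype.ext e1.symm))))⟩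
  rintro _ (rfl | rfl | rfl | rfl)
  exacts [fin r k.1, fin s k.2.1, fin (s * r) (map_mul ρ _ _ ▸ k.2.2.1),
    fin (s * r * r) (by rw [map_mul, map_mul]; exact k.2.2.2)]

end Cfsg.Agent.B84V
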