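import Cfsg.Agent.B84V.E
import Cfsg.Agent.B84V.R
import Cfsg.Agent.B84V.Ar
import Cfsg.Agent.B84.LocC

/-! # The index of the centralizer when `q ≡ 3 (mod 4)` -/

set_option autoImplicit false

namespace Cfsg.Agent.B84V

open Cfsg Cfsg.Agent.GT Cfsg.Agent.Char Cfsg.Agent.Cl Cfsg.Agent.B84 Cfsg.Agent.B84C Subgroup Function
open scoped ComplexConjugate Classical

variable {F G : Type*} [Field F] [Fintype F] [Group G] {φ : GL (Fin 2) F →* G} {g : G}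

theorem fact3 (hq : Fintype.card F % 4 = 3) : Fact (∀ r : F, r ^ 2 ≠ -1 + 0 * r) :=
  ⟨fun r e => FiniteField.isSquare_neg_one_iff.1 ⟨r, by linear_combination -e⟩ hq⟩

theorem exists_psi [Fintype G] (h : Hy φ g) (hq : Fintype.card F % 4 = 3) : ∃ (η η' : G → ℂ) (a : ℤ),
    IsSIrr G η ∧ IsSIrr G η' ∧ ⟪η, fun _ => 1⟫ = 0 ∧ ⟪η', fun _ => 1⟫ = 0 ∧ ⟪η, η'⟫ = 0 ∧ η 1 = a - 1 ∧
    η (φ (dg (-1) (-1))) = Fintype.card F - 1 ∧ η' 1 = -a ∧ η' (φ (dg (-1) (-1))) = -Fintype.card F ∧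
    (C1[φ (dg (-1) (-1))].index : ℤ) * (a - Fintype.card F) ^ 2 =
      Fintype.card F * (Fintype.card F + 1) ^ 2 * (Fintype.card F - 1) * (a * (a - 1)) ∧
    (3 * Fintype.card F - 2 ≤ a ∨ a < 0) ∧ ∀ y, 1 + (η y + η' y) ≠ 0 →
      ¬Odd (orderOf y) ∧ ∃ z, IsConj (φ (dg z z)) (y ^ (Fintype.card F + 1)) :=
  have := fact3 hq
  exists_psi' h

variable [Finite G]

/-- (C1) -/
theorem C1_three (h : Hy φ g) (hq : Fintype.card F % 4 = 3) : C1[φ (dg (-1) (-1))].index <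
    3 * Fintype.card F ^ 2 * (Fintype.card F ^ 2 - Fintype.card F + 1) := by
  have := Fintype.ofFinite G
  obtain ⟨-, -, a, -, -, -, -, -, -, -, -, -, E, ha, -⟩ := exists_psi h hq
  have := ar_lt (by omega) (by omega) h.odd_index.natCast E ha
  zify [Nat.le_self_pow two_ne_zero (Fintype.card F)]
  exact this

/-- (C2) -/
theorem C2_three (h : Hy φ g) (hq : Fintype.card F = 3) (h3 : 3 ∣ C1[φ (dg (-1) (-1))].index)
    (h9 : ¬9 ∣ C1[φ (dg (-1) (-1))].index) : C1[φ (dg (-1) (-1))].index = 165 := by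
  have := Fintype.ofFinite G
  obtain ⟨-, -, a, -, -, -, -, -, -, -, -, -, E, -⟩ := exists_psi h (by omega)
  rw [hq] at E
  exact_mod_cast ar_three h.odd_index.natCast E (by exact_mod_cast h3) (by exact_mod_cast h9)

omit [Finite G] in
theorem sc_sq (hq : Fintype.card F % 4 = 3) (hD : D1 φ g)
    (hc : ∀ a b, Odd (orderOf (φ (dg a b))) → Commute g (φ (dg a b))) (z : Fˣ) : φ (dg z z) ^ 2 = 1 := by
  have := fact3 hq
  rw [← map_pow, dg_pow, sq]
  exact hD _ (hc _ _ ((sq_odd z).of_dvd_nat (orderOf_dvd_of_pow_eq_one (by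
    rw [← map_pow, dg_pow, pow_orderOf_eq_one, dg_one, map_one]))))

/-- what is left of (C4): the data for the last subcase -/
theorem C4_data [Fintype G] (h : Hy φ g) (hq : Fintype.card F % 4 = 3) (hD : D1 φ g)
    (hc : ∀ a b, Odd (orderOf (φ (dg a b))) → Commute g (φ (dg a b)))
    (H1 : (16 : ℤ) ∣ C1[φ (dg (-1) (-1))].index - 1 + Fintype.card F * (Fintype.card F + 1))
    (n : ¬ringChar F ∣ C1[φ (dg (-1) (-1))].index) : ¬(Fintype.card F - 1) / 2 ∣ 15 ∧ ∃ (η η' : G → ℂ) (a : ℤ),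
    IsSIrr G η ∧ IsSIrr G η' ∧ ⟪η, fun _ => 1⟫ = 0 ∧ ⟪η', fun _ => 1⟫ = 0 ∧ ⟪η, η'⟫ = 0 ∧ η 1 = a - 1 ∧
    η (φ (dg (-1) (-1))) = Fintype.card F - 1 ∧ η' 1 = -a ∧ η' (φ (dg (-1) (-1))) = -Fintype.card F ∧
    (C1[φ (dg (-1) (-1))].index : ℤ) * (a - Fintype.card F) ^ 2 =
      Fintype.card F * (Fintype.card F + 1) ^ 2 * (Fintype.card F - 1) * (a * (a - 1)) ∧
    (Fintype.card F : ℤ) ∣ a ∧ 7 * (Fintype.card F : ℤ) ≤ |a| ∧ ∀ y, 1 + (η y + η' y) ≠ 0 →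
      y ^ (2 * (Fintype.card F + 1)) = 1 ∧ ¬Odd (orderOf y) := by
  obtain ⟨η, η', a, h1, h2, h3, h4, h5, h6, h7, h8, h9, E, -, v⟩ := exists_psi h hq
  have p := Hy.prime_p (F := F)
  obtain ⟨k, -, hk⟩ := FiniteField.card F (ringChar F)
  obtain ⟨a1, a2, c, e, e1, e2⟩ := ar_cop (by omega) (by omega) h.odd_index.natCast E (by
    rw [Nat.isCoprime_iff_coprime, hk]; exact (p.coprime_iff_not_dvd.2 n).pow_left _)
  refine ⟨fun d => ?_, η, η', a, h1, h2, h3, h4, h5, h6, h7, h8, h9, E, a1, a2, fun y ny => ⟨?_, (v y ny).1⟩⟩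
  · have k : Fintype.card F = 3 ∨ Fintype.card F = 7 ∨ Fintype.card F = 11 ∨ Fintype.card F = 31 := by
      have := Nat.le_of_dvd (by norm_num) d
      generalize hm : (Fintype.card F - 1) / 2 = m at *
      interval_cases m <;> omega
    have m := h.index_mod_p n
    rw [show ringChar F = Fintype.card F from (Nat.prime_dvd_prime_iff_eq p (by
      rcases k with k | k | k | k <;> rw [k] <;> norm_num)).1 (hk ▸ dvd_pow_self _ (PNat.ne_zero _))] at m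
    exact ar_small (by omega) h.odd_index.natCast e1 e2 (by exact_mod_cast m) H1
  · obtain ⟨z, e⟩ := (v y ny).2
    rw [mul_comm, pow_mul]
    exact isConj_one_right.1 (sc_sq hq hD hc z ▸ e.pow 2)

end Cfsg.Agent.B84V
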