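import Cfsg.Agent.B84V.W

/-! # The characters of `G` coming from the discrete series -/

set_option autoImplicit false

namespace Cfsg.Agent.B84V

open Cfsg Cfsg.Agent.GT Cfsg.Agent.Char Cfsg.Agent.Cl Cfsg.Agent.B84 Cfsg.Agent.B84C Subgroup Function
open scoped ComplexConjugate Classical QuadraticAlgebra

theorem link' {G : Type*} [Group G] [Fintype G] {Θ α β : G → ℂ} (h : IsGeneralizedCharacter G Θ)
    (h3 : ⟪Θ, Θ⟫ = 3) (ho : ⟪Θ, fun _ => 1⟫ = 1) (ha : IsIrrCharacter G α) (hb : IsIrrCharacter G β)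
    (hl : ⟪Θ, α - β⟫ = 1) (hz : ⟪α - β, fun _ => 1⟫ = 0) : ∃ γ δ, IsSIrr G γ ∧ IsSIrr G δ ∧
      ⟪γ, fun _ => 1⟫ = 0 ∧ ⟪δ, fun _ => 1⟫ = 0 ∧ ⟪γ, δ⟫ = 0 ∧ Θ = (fun _ => 1) + (γ + δ) ∧ (γ = α ∨ γ = -β) := by
  obtain ⟨γ, δ, hc, hd, cd, e⟩ := (h.sub virt_one).exists_of_nsq_two (nsq_eq_of_ci (by
    rw [ci_sub_left, ci_sub_right, ci_sub_right, h3, ho, virt_one.ci_comm h, ho, ci_one_one]; norm_num))
  have z : ⟪γ, fun _ => 1⟫ + ⟪δ, fun _ => 1⟫ = 0 := by rw [← ci_add_left, ← e, ci_sub_left, ho, ci_one_one, sub_self]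
  have z1 : ⟪γ, fun _ => 1⟫ = 0 := by
    rcases hc.ci_cases isIrrCharacter_one.isSIrr with a | a | a
    · rw [a.1, virt_one.ci_comm hd.virt] at cd
      rw [a.2, cd] at z
      simp at z
    · rw [a.1, ci_neg_left, virt_one.ci_comm hd.virt, neg_eq_zero] at cd
      rw [a.2, cd] at z
      simp at z
    · exact a.2.2
  have z2 : ⟪δ, fun _ => 1⟫ = 0 := by rwa [z1, zero_add] at z
  replace e := sub_eq_iff_eq_add'.1 e
  have : ∃ ε, (ε = γ ∨ ε = δ) ∧ (ε = α ∨ ε = -β) := by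
    rw [e, ci_add_left, virt_one.ci_comm (ha.virt.sub hb.virt), hz, ci_add_left, ci_sub_right, ci_sub_right] at hl
    by_contra n
    push Not at n
    have p : ∀ ε, ε = γ ∨ ε = δ → IsSIrr G ε → (⟪ε, α⟫ - ⟪ε, β⟫).re ≤ 0 := fun ε q s => by
      have k1 : (⟪ε, α⟫).re ≤ 0 := by
        rcases s.ci_cases ha.isSIrr with a | a | a
        exacts [absurd a.1 (n ε q).1, by simp [a.2], by simp [a.2.2]]
      have k2 : 0 ≤ (⟪ε, β⟫).re := by
        rcases s.ci_cases hb.isSIrr with a | a | a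
        exacts [by simp [a.2], absurd a.1 (n ε q).2, by simp [a.2.2]]
      rw [Complex.sub_re]; linarith
    have := congrArg Complex.re hl
    simp only [zero_add, Complex.add_re, Complex.one_re] at this
    linarith [p γ (.inl rfl) hc, p δ (.inr rfl) hd]
  obtain ⟨ε, rfl | rfl, r⟩ := this
  exacts [⟨_, _, hc, hd, z1, z2, cd, e, r⟩, ⟨_, _, hd, hc, z2, z1, ci_eq_zero_symm cd, add_comm γ _ ▸ e, r⟩]

variable {F G : Type*} [Field F] [Fintype F] [Group G] [Fintype G] {φ : GL (Fin 2) F →* G} {g : G}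

theorem four_pos (h : Hy φ g) {χ : G → ℂ} (hχ : IsIrrCharacter G χ) {N b : ℤ} (h1 : χ 1 = N)
    (ht : χ (φ (dg (-1) (-1))) = b) : 0 ≤ N + 3 * b := by
  let u : ℤˣ →* Fˣ := Units.map (Int.castRingHom F).toMonoidHom
  have u1 : u (-1) = -1 := Units.ext (by simp [u])
  obtain ⟨n, e⟩ := (hχ.isCharacter.comp (φ.comp (dgH.comp (u.prodMap u)))).ci_nat isCharacter_one
  have t2 : χ (φ (dg 1 (-1))) = b := by rw [← h.g1, hχ.isClassFunction, ht]
  have t3 : χ (φ (dg (-1) 1)) = b := by rw [← h.g2, hχ.isClassFunction, t2]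
  rw [ci_one_right, Fintype.sum_prod_type] at e
  simp [UnitsInt.univ, dgH, u1, dg_one, h1, ht, t2, t3] at e
  have : ((N + 3 * b : ℤ) : ℂ) = (4 * n : ℕ) := by push_cast; linear_combination 4 * e
  have := Int.cast_injective (this.trans (Int.cast_natCast _).symm)
  omega

section
variable [hF : Fact (∀ r : F, r ^ 2 ≠ -1 + 0 * r)] {μ ν : (Kq F)ˣ →* ℂˣ}

theorem ci_W : ⟪WW (ch μ), WW (ch ν)⟫ = (if μ = ν then 1 else 0) + if μ = ν.comp ss then 1 else 0 := by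
  rw [ci_WW, ci_ch, ← ci_ch μ (ν.comp ss)]; rfl

theorem cZ_W (h : (-1 : Fˣ) ≠ 1) {α : GL (Fin 2) F → ℂ} (s : IsSIrr _ α) (e : α (dg 1 (-1)) = 0) :
    cZ (dg 1 (-1)) α = 0 := by
  have := cZ_sirr (t := dg (1 : Fˣ) (-1)) s
  rw [e] at this
  simpa [s.apply_one_ne_zero] using this

omit [Fintype G] in
theorem gd_W (h : Hy φ g) (h1 : ∀ c, Odd (orderOf c) → μ c = 1) (h2 : ∀ c, Odd (orderOf c) → ν c = 1) :
    Gd φ (WW (ch μ - ch ν)) ∧ ∀ y, WW (ch μ - ch ν) y ≠ 0 → Ap φ y := by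
  refine ⟨⟨(WW_virt ((ch_virt μ).sub (ch_virt ν))).isClassFunction, fun a b e => ?_⟩, fun y n => ?_⟩
  · obtain ⟨c, o, k⟩ := h.ker (a⁻¹ * b) (by rw [map_mul, map_inv, e, inv_mul_cancel])
    rw [← orderOf_injective jj jj_inj] at o
    rw [← WW_mul c (fun x => by simp [ch, h1 _ o, h2 _ o]) a, ← k, mul_inv_cancel_left]
  · exact (MonoidHom.map_zpowers _ _).le (mem_map_of_mem φ (WW_supp (fun c k => neg_mem fun o => k (by
      simp [ch, h1 _ o, h2 _ o])) n))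

theorem exists_psi' (h : Hy φ g) : ∃ (η η' : G → ℂ) (a : ℤ), IsSIrr G η ∧ IsSIrr G η' ∧ ⟪η, fun _ => 1⟫ = 0 ∧
    ⟪η', fun _ => 1⟫ = 0 ∧ ⟪η, η'⟫ = 0 ∧ η 1 = a - 1 ∧ η (φ (dg (-1) (-1))) = Fintype.card F - 1 ∧ η' 1 = -a ∧
    η' (φ (dg (-1) (-1))) = -Fintype.card F ∧ (C1[φ (dg (-1) (-1))].index : ℤ) * (a - Fintype.card F) ^ 2 =
      Fintype.card F * (Fintype.card F + 1) ^ 2 * (Fintype.card F - 1) * (a * (a - 1)) ∧
    (3 * Fintype.card F - 2 ≤ a ∨ a < 0) ∧ ∀ y, 1 + (η y + η' y) ≠ 0 →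
      ¬Odd (orderOf y) ∧ ∃ z, IsConj (φ (dg z z)) (y ^ (Fintype.card F + 1)) := by
  obtain ⟨μ, m1, m2, m3⟩ := exists_theta (F := F)
  have n1 : ∀ c, Odd (orderOf c) → (μ ^ 2) c = 1 := fun c o => by simp [m1 c o]
  have n2 : ∀ a, (μ ^ 2) (jj a) = 1 := fun a => by
    rw [MonoidHom.pow_apply, ← map_pow, ← map_pow, m1 _ (by rw [orderOf_injective jj jj_inj, sq]; exact sq_odd a)]
  have n3 : μ ^ 2 ≠ (μ ^ 2).comp ss := fun e => m3 (MonoidHom.ext fun c => by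
    obtain ⟨a, k⟩ := mul_ss c
    have := n2 a
    rwa [k, map_mul, show (μ ^ 2) (ss c) = (μ ^ 2) c from (DFunLike.congr_fun e c).symm, ← MonoidHom.mul_apply,
      ← pow_add] at this)
  have n4 : μ ≠ μ.comp ss := fun e => n3 (MonoidHom.ext fun c => congrArg (· ^ 2) (DFunLike.congr_fun e c))
  have s1 : ss (-1 : (Kq F)ˣ) = -1 := by rw [← jj_neg, ss_jj]
  have nn : (1 : ℂˣ) ≠ -1 := fun e => by have := congrArg Units.val e; norm_num at this
  have n5 : μ ^ 2 ≠ μ := fun e => nn (by simpa [m2] using DFunLike.congr_fun e (-1))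
  have n6 : μ ^ 2 ≠ μ.comp ss := fun e => nn (by simpa [m2, s1] using DFunLike.congr_fun e (-1))
  have n7 : μ ≠ (μ ^ 2).comp ss := fun e => nn (by simpa [m2, s1] using (DFunLike.congr_fun e (-1)).symm)
  have n8 : μ ^ 2 ≠ 1 := fun e => m3 (by rw [show 4 = 2 * 2 from rfl, pow_mul, e]; ext; simp)
  have n9 : 1 ≠ (μ ^ 2).comp ss := fun e => n8 (MonoidHom.ext fun c => by
    have := DFunLike.congr_fun e (ss c)
    rwa [MonoidHom.comp_apply, show ss (ss c) = c from kext (by simp) (by simp), eq_comm] at this)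
  have n10 : 1 ≠ μ := fun e => nn (by simpa [m2] using DFunLike.congr_fun e (-1))
  have n11 : 1 ≠ μ.comp ss := fun e => nn (by simpa [m2, s1] using DFunLike.congr_fun e (-1))
  obtain ⟨g1, a1⟩ := gd_W (ν := 1) h n1 fun _ _ => rfl
  obtain ⟨g2, a2⟩ := gd_W h n1 m1
  have v1 := WW_virt ((ch_virt (μ ^ 2)).sub (ch_virt 1))
  have v2 := WW_virt ((ch_virt (μ ^ 2)).sub (ch_virt μ))
  have c1 : (ch (1 : (Kq F)ˣ →* ℂˣ)) = fun _ => 1 := rfl
  have p11 : ⟪WW (ch (μ ^ 2) - ch 1), WW (ch (μ ^ 2) - ch 1)⟫ = 3 := by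
    simp only [WW_sub, ci_sub_left, ci_sub_right, ci_W, MonoidHom.one_comp, n3, n8, n8.symm, n9]; norm_num
  have p22 : ⟪WW (ch (μ ^ 2) - ch μ), WW (ch (μ ^ 2) - ch μ)⟫ = 2 := by
    simp only [WW_sub, ci_sub_left, ci_sub_right, ci_W, n3, n4, n5, n5.symm, n6, n7]; norm_num
  have p12 : ⟪WW (ch (μ ^ 2) - ch 1), WW (ch (μ ^ 2) - ch μ)⟫ = 1 := by
    simp only [WW_sub, ci_sub_left, ci_sub_right, ci_W, n3, n5, n6, n8.symm, n9, n10, n11]; norm_num
  have p1 : ⟪WW (ch (μ ^ 2) - ch 1), fun _ => 1⟫ = 1 := by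
    rw [ci_WW_one, ← c1, ci_sub_left, ci_ch, ci_ch]; simp [n8]
  have p2 : ⟪WW (ch (μ ^ 2) - ch μ), fun _ => 1⟫ = 0 := by
    rw [ci_WW_one, ← c1, ci_sub_left, ci_ch, ci_ch]; simp [n8, n10.symm]
  have z2 : cZ (dg 1 (-1)) (WW (ch (μ ^ 2) - ch μ)) = 0 := by
    rw [WW_sub, cZ_sub, cZ_W h.neg_ne ((WW_virt (ch_virt _)).isSIrr_of_ci_self (by simp [ci_W, n3])) WW_u,
      cZ_W h.neg_ne ((WW_virt (ch_virt _)).isSIrr_of_ci_self (by simp [ci_W, n4])) WW_u, sub_self]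
  have e1 : WW (ch (μ ^ 2) - ch 1) = ind io (ch 1 - ch (μ ^ 2)) := by
    have k : ∀ θ : (Kq F)ˣ → ℂ, (∀ a, θ (jj a) = 0) → AA θ = 0 := fun θ e => by
      simp only [AA, II, e]
      rw [show indFun (gl2B F) (fun _ => 0) = 0 from indFun_zero _, zero_mul]
    rw [WW, k _ fun p => by simp only [Pi.sub_apply, ch, n2]; simp, zero_sub, ← ind_neg, neg_sub]
  have z1 : cZ (dg 1 (-1)) (WW (ch (μ ^ 2) - ch 1)) =
      Fintype.card F * (Fintype.card F + 1) ^ 2 * (Fintype.card F - 1) := by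
    have k : ⟪WW (ch (μ ^ 2) - ch 1), St⟫ = -1 := by
      rw [St, ci_sub_right, p1, e1, ci_ind_left _ _ II_class, ci_def, Finset.sum_eq_zero, mul_zero, zero_sub]
      intro c _
      by_cases k : c.1.im = 0
      · obtain ⟨a, rfl⟩ := eq_jj k
        simp only [Pi.sub_apply, ch, n2]; simp
      · simp [II_io k]
    have := cZ_W h.neg_ne (((v1.sub virt_one).add St_virt).isSIrr_of_ci_self (by
      simp only [ci_add_left, ci_add_right, ci_sub_left, ci_sub_right, p11, p1, k, virt_one.ci_comm v1,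
        St_virt.ci_comm v1, virt_one.ci_comm St_virt, St_ci, ci_one_one, St_sirr.ci_self]
      norm_num)) (by simp [WW_u, St_dg h.neg_ne.symm])
    rw [cZ_add, cZ_sub, cZ_one, index_u h.neg_ne, cZ_St h.neg_ne] at this
    linear_combination this
  have at1 : Ap φ (dg (-1) (-1)) := mem_zpowers _
  have o1 : Odd (orderOf (1 : G)) := by simp
  have n0 : (C1[φ (dg (-1) (-1))].index : ℂ) ≠ 0 := Nat.cast_ne_zero.2 index_ne_zero_of_finite
  obtain ⟨α, β, N, a, b, ha, hb, -, e, α1, β1, αt, βt, N0, k, -⟩ := two_term (tt (φ := φ)) (v2.ind φ)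
    (by rw [phi0_ci h g2 a2 a2, p22]) (phi0_odd h a2 o1)
  have w := phi0_val h g2 a2 at1
  rw [e, Pi.sub_apply, αt, βt, WW_sc, jj_neg] at w
  simp only [Pi.sub_apply, ch, MonoidHom.pow_apply, m2, Units.val_pow_eq_pow_val, Units.val_neg, Units.val_one] at w
  rw [phi0_cZ h g2 a2, z2] at k
  have ab : (a : ℂ) + b = 0 := mul_left_cancel₀ (mul_ne_zero (pow_ne_zero 2 n0) (mul_ne_zero two_ne_zero
    (q1_ne' (F := F)))) (by linear_combination -k - (C1[φ (dg (-1) (-1))].index : ℂ) ^ 2 * (a + b) * w)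
  have av : (a : ℂ) = Fintype.card F - 1 := by linear_combination (w + ab) / 2
  have bv : (b : ℂ) = -(Fintype.card F - 1) := by linear_combination (ab - w) / 2
  have pos := four_pos h hb β1 βt
  rw [show b = -(Fintype.card F - 1) by exact_mod_cast bv] at pos
  obtain ⟨γ, δ, hc, hd, y1, y2, y3, y4, y5⟩ := link' (v1.ind φ) (by rw [phi0_ci h g1 a1 a1, p11])
    (by rw [phi0_one, p1]) ha hb (by rw [← e, phi0_ci h g2 a1 a2, p12]) (by rw [← e, phi0_one, p2])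
  have w1 := phi0_odd h a1 o1
  have w2 := phi0_val h g1 a1 at1
  have w3 := phi0_cZ h g1 a1
  rw [WW_sc] at w2
  simp only [Pi.sub_apply, ch, n2, MonoidHom.one_apply, sub_self, mul_zero] at w2
  rw [y4] at w1 w2 w3
  simp only [Pi.add_apply] at w1 w2
  obtain ⟨x, x1, x2, x3⟩ : ∃ x : ℤ, γ 1 = x - 1 ∧ γ (φ (dg (-1) (-1))) = Fintype.card F - 1 ∧
      (3 * Fintype.card F - 2 ≤ x ∨ x < 0) := by
    have := Fintype.one_lt_card (α := F)
    rcases y5 with rfl | rfl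
    · exact ⟨N + 1, by simp [α1], αt.trans av, .inl (by omega)⟩
    · exact ⟨1 - N, by simp [β1], by simp [βt, bv], .inr (by omega)⟩
  have d1 : δ 1 = -x := by linear_combination w1 - x1
  have d2 : δ (φ (dg (-1) (-1))) = -Fintype.card F := by linear_combination w2 - x2
  refine ⟨γ, δ, x, hc, hd, y1, y2, y3, x1, x2, d1, d2, ?_, x3, fun y n => ⟨fun o => n ?_, ?_⟩⟩
  · have k1 := cZ_sirr (t := φ (dg (-1) (-1))) hc
    have k2 := cZ_sirr (t := φ (dg (-1) (-1))) hd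
    rw [x1, x2] at k1
    rw [d1, d2] at k2
    rw [cZ_add, cZ_add, cZ_one, z1] at w3
    have : (C1[φ (dg (-1) (-1))].index : ℂ) * (x - Fintype.card F) ^ 2 =
        Fintype.card F * (Fintype.card F + 1) ^ 2 * (Fintype.card F - 1) * (x * (x - 1)) :=
      mul_left_cancel₀ n0 (by linear_combination x * (x - 1) * w3 - x * k1 + (x - 1) * k2)
    exact_mod_cast this
  · exact (congrFun y4 y).symm.trans (phi0_odd h a1 o)
  · obtain ⟨k, c, e, -⟩ := ind_ne (f := φ.comp io) (θ := ch 1 - ch (μ ^ 2)) (y := y) (by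
      rwa [← ind_comp, ← e1, y4])
    obtain ⟨z, hz⟩ := mul_ss c
    refine ⟨z, isConj_iff.2 ⟨k, ?_⟩⟩
    rw [← io_jj, hz, ← pow_q, ← pow_succ', map_pow, map_pow, ← conj_pow, show φ (io c) = _ from e]
    simp [mul_assoc]

end

end Cfsg.Agent.B84V
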