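import Cfsg.Agent.B84C.C
import Cfsg.Agent.B84.Loc

/-! # The discrete series of `GL₂(q)`, `q ≡ 3 (mod 4)` -/

set_option autoImplicit false

namespace Cfsg.Agent.B84V

open Cfsg Cfsg.Agent.GT Cfsg.Agent.Char Cfsg.Agent.Cl Cfsg.Agent.B84 Cfsg.Agent.B84C Subgroup Function
open scoped ComplexConjugate Classical QuadraticAlgebra

section gen

variable {G H : Type*} [Group G] [Fintype G] [Group H] [Fintype H] {f : H →* G} {θ : H → ℂ}

theorem ind_central (hf : Injective f) (a : H) (hc : ∀ x, f a * x = x * f a) :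
    ind f θ (f a) = Nat.card G / Nat.card H * θ a := by
  have : ∀ x : G, (∑ b, if f b = x⁻¹ * f a * x then θ b else 0) = θ a := fun x => by
    rw [mul_assoc, hc, inv_mul_cancel_left]
    simp [hf.eq_iff]
  simp only [ind, this, Finset.sum_const, Finset.card_univ, ← Nat.card_eq_fintype_card, nsmul_eq_mul]
  ring

theorem ind_two (hf : Injective f) {c c' : H} (ne : c ≠ c') {u : G} (hu : f c' = u⁻¹ * f c * u)
    (h1 : ∀ b x, f b = x⁻¹ * f c * x → b = c ∨ b = c') (h2 : ∀ x, f c = x⁻¹ * f c * x ↔ x ∈ f.range) :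
    ind f θ (f c) = θ c + θ c' := by
  have k1 : ∀ v : ℂ, (∑ x, if f c = x⁻¹ * f c * x then v else 0) = Nat.card H * v := fun v => by
    rw [Nat.card_congr (MonoidHom.ofInjective hf).toEquiv, natCard_subtype_eq_sum_ite _ ℂ, Finset.sum_mul]
    exact Finset.sum_congr rfl fun x _ => by simp [h2]
  have k2 : (∑ x, if f c' = x⁻¹ * f c * x then θ c' else 0) = Nat.card H * θ c' := by
    rw [← k1]
    symm
    refine Fintype.sum_equiv (Equiv.mulRight u) _ _ fun x => if_congr ?_ rfl rfl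
    simp only [hu, Equiv.coe_mulRight, mul_inv_rev, ← mul_assoc, mul_left_inj]
    simp only [mul_assoc, mul_right_inj]
  rw [ind, Finset.sum_comm, Finset.sum_eq_add c c' ne (fun b _ hb => Finset.sum_eq_zero fun x _ =>
    if_neg fun e => (h1 b x e).elim hb.1 hb.2) (by simp) (by simp), k1, k2, ← mul_add,
    inv_mul_cancel_left₀ (card_ne_zero_complex _)]

theorem ind_mul_central (a : H) (hc : ∀ x, f a * x = x * f a) (hθ : ∀ b, θ (b * a) = θ b) (y : G) :
    ind f θ (y * f a) = ind f θ y := by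
  simp only [ind]
  congr 1
  refine Finset.sum_congr rfl fun x _ => Eq.symm (Fintype.sum_equiv (Equiv.mulRight a) _ _ fun b => ?_)
  refine if_congr ?_ (hθ b).symm rfl
  rw [Equiv.coe_mulRight, map_mul, ← mul_assoc, mul_assoc _ (f a), hc, ← mul_assoc, mul_left_inj]

theorem ind_ne {y : G} (h : ind f θ y ≠ 0) : ∃ x a, f a = x⁻¹ * y * x ∧ θ a ≠ 0 := by
  by_contra n
  push Not at n
  exact h (ind_eq_zero_of_forall n)

end gen

/-- the quadratic extension -/
abbrev Kq (F : Type*) [Field F] := QuadraticAlgebra F (-1) 0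

variable {F : Type*} [Field F] [hF : Fact (∀ r : F, r ^ 2 ≠ -1 + 0 * r)]

theorem nsq (r : F) : r ^ 2 ≠ -1 := by simpa using hF.out r

theorem sum_sq {a b : F} (e : a ^ 2 + b ^ 2 = 0) : b = 0 := by
  by_contra n
  exact nsq (a / b) (by field_simp; linear_combination e)

theorem two_ne : (2 : F) ≠ 0 := fun e => nsq (1 : F) (by linear_combination e)

theorem nm_ne (z : (Kq F)ˣ) : z.1.re * z.1.re - z.1.im * -z.1.im ≠ 0 := fun e => by
  have a : z.1.im = 0 := sum_sq (a := z.1.re) (by linear_combination e)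
  have b : z.1.re = 0 := sum_sq (a := z.1.im) (by linear_combination e)
  exact z.ne_zero (QuadraticAlgebra.ext b a)

/-- the nonsplit torus -/
noncomputable def io : (Kq F)ˣ →* GL (Fin 2) F :=
  MonoidHom.mk' (fun z => gl2mk z.1.re z.1.im (-z.1.im) z.1.re (nm_ne z)) fun a b => by
    simp only [gl2_eq_iff, gl2_mul, gl2mk00, gl2mk01, gl2mk10, gl2mk11, Units.val_mul, QuadraticAlgebra.re_mul,
      QuadraticAlgebra.im_mul]
    exact ⟨by ring, by ring, by ring, by ring⟩

/-- scalars -/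
noncomputable def jj : Fˣ →* (Kq F)ˣ := Units.map (algebraMap F (Kq F)).toMonoidHom

/-- conjugation -/
noncomputable def ss : (Kq F)ˣ →* (Kq F)ˣ := Units.map (starRingEnd (Kq F)).toMonoidHom

theorem io_eq (z : (Kq F)ˣ) : io z = gl2mk z.1.re z.1.im (-z.1.im) z.1.re (nm_ne z) := rfl
@[simp] theorem jj_re (a : Fˣ) : (jj a).1.re = a := rfl
@[simp] theorem jj_im (a : Fˣ) : (jj a).1.im = 0 := rfl
@[simp] theorem ss_re (z : (Kq F)ˣ) : (ss z).1.re = z.1.re := by simp [ss, starRingEnd_apply]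
@[simp] theorem ss_im (z : (Kq F)ˣ) : (ss z).1.im = -z.1.im := by simp [ss, starRingEnd_apply]

theorem kext {z w : (Kq F)ˣ} (h1 : z.1.re = w.1.re) (h2 : z.1.im = w.1.im) : z = w :=
  Units.ext (QuadraticAlgebra.ext h1 h2)

theorem io_jj (a : Fˣ) : io (jj a) = dg a a := by simp [io_eq, dg, gl2_eq_iff]

theorem ss_jj (a : Fˣ) : ss (jj a) = jj a := kext (by simp) (by simp)

theorem jj_inj : Injective (jj (F := F)) := fun _ _ e => Units.ext (congrArg (fun z : (Kq F)ˣ => z.1.re) e)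

theorem eq_jj {z : (Kq F)ˣ} (h : z.1.im = 0) : ∃ a, jj a = z :=
  ⟨.mk0 z.1.re fun e => nm_ne z (by simp [e, h]), kext rfl h.symm⟩

theorem mul_ss (z : (Kq F)ˣ) : ∃ a, jj a = z * ss z := eq_jj (by simp; ring)

theorem io_inj : Injective (io (F := F)) := fun _ _ e =>
  kext (gl2_eq_iff.1 e).1 (gl2_eq_iff.1 e).2.1

theorem io_ss (z : (Kq F)ˣ) : io (ss z) = (dg 1 (-1))⁻¹ * io z * dg 1 (-1) := by
  rw [dg_inv]; simp [io_eq, dg, gl2_eq_iff, gl2_mul]

omit hF in
theorem tr_conj {A B x : GL (Fin 2) F} (e : A = x⁻¹ * B * x) :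
    A.1 0 0 + A.1 1 1 = B.1 0 0 + B.1 1 1 ∧
      A.1 0 0 * A.1 1 1 - A.1 0 1 * A.1 1 0 = B.1 0 0 * B.1 1 1 - B.1 0 1 * B.1 1 0 := by
  rw [← Matrix.trace_fin_two, ← Matrix.trace_fin_two, ← Matrix.det_fin_two, ← Matrix.det_fin_two, e]
  exact ⟨Matrix.trace_units_conj' x B.1, Matrix.det_units_conj' x B.1⟩

theorem io_conj {b c : (Kq F)ˣ} {x : GL (Fin 2) F} (e : io b = x⁻¹ * io c * x) : b = c ∨ b = ss c := by
  obtain ⟨e1, e2⟩ := tr_conj e
  simp only [io_eq, gl2mk00, gl2mk01, gl2mk10, gl2mk11] at e1 e2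
  have r : b.1.re = c.1.re := mul_left_cancel₀ (two_ne (F := F)) (by linear_combination e1)
  rw [r] at e2
  exact (mul_self_eq_mul_self_iff.1 (show b.1.im * b.1.im = c.1.im * c.1.im by linear_combination e2)).imp
    (kext r) fun k => kext (by simp [r]) (by simp [k])

theorem io_cent {c : (Kq F)ˣ} (h : c.1.im ≠ 0) {x : GL (Fin 2) F} : io c = x⁻¹ * io c * x ↔ x ∈ io.range := by
  rw [mul_assoc, eq_inv_mul_iff_mul_eq]
  refine ⟨fun e => ?_, by rintro ⟨z, rfl⟩; rw [← map_mul, ← map_mul, mul_comm]⟩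
  obtain ⟨e1, e2, -, -⟩ := gl2_eq_iff.1 e
  simp only [io_eq, gl2_mul, gl2mk00, gl2mk01, gl2mk10, gl2mk11] at e1 e2
  have a1 : x.1 1 0 = -x.1 0 1 := mul_left_cancel₀ h (by linear_combination -e1)
  have a2 : x.1 1 1 = x.1 0 0 := mul_left_cancel₀ h (by linear_combination -e2)
  refine ⟨.mk0 ⟨x.1 0 0, x.1 0 1⟩ fun n => x.det_ne_zero ?_, by simp [io_eq, gl2_eq_iff, a1, a2]⟩
  rw [Matrix.det_fin_two, a1, a2, show x.1 0 0 = 0 from congrArg QuadraticAlgebra.re n,
    show x.1 0 1 = 0 from congrArg QuadraticAlgebra.im n]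
  simp

theorem io_not_B {c : (Kq F)ˣ} (h : c.1.im ≠ 0) (x : GL (Fin 2) F) : x⁻¹ * io c * x ∉ gl2B F := fun k => by
  obtain ⟨e1, e2⟩ := tr_conj (rfl : x⁻¹ * io c * x = _)
  rw [mem_gl2B.1 k] at e2
  simp only [io_eq c, gl2mk00, gl2mk01, gl2mk10, gl2mk11] at e1 e2
  rw [← io_eq c] at e1 e2
  exact h (sum_sq (a := (x⁻¹ * io c * x).1 0 0 - c.1.re) (by
    linear_combination (x⁻¹ * io c * x).1 0 0 * e1 - e2))

variable [Fintype F]

noncomputable instance fintypeKq : Fintype (Kq F) := Fintype.ofEquiv _ (QuadraticAlgebra.equivProd (-1 : F) 0).symm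

theorem card_K : Nat.card (Kq F)ˣ = Fintype.card F ^ 2 - 1 := by
  rw [Nat.card_units, Nat.card_congr (QuadraticAlgebra.equivProd (-1 : F) 0)]; simp [sq]

theorem card_K' : (Nat.card (Kq F)ˣ : ℂ) = (Fintype.card F + 1) * (Fintype.card F - 1) := by
  rw [card_K, Nat.cast_sub (Nat.one_le_pow _ _ Fintype.card_pos)]; push_cast; ring

omit hF in
theorem q1_ne' : (Fintype.card F : ℂ) - 1 ≠ 0 :=
  sub_ne_zero.2 (by exact_mod_cast Fintype.one_lt_card.ne')

variable {θ θ' : (Kq F)ˣ → ℂ} {f : Fˣ × Fˣ → ℂ}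

theorem ind_jj (a : Fˣ) : ind io θ (dg a a) = Fintype.card F * (Fintype.card F - 1) * θ (jj a) := by
  have a1 := q1_ne (F := F)
  have a2 := q1_ne' (F := F)
  rw [← io_jj, ind_central io_inj _ fun x => by rw [io_jj, dg_comm], card_GL, card_K']
  simp only [Nat.cast_mul, card_D]
  push_cast
  field_simp

theorem ind_io {c : (Kq F)ˣ} (h : c.1.im ≠ 0) : ind io θ (io c) = θ c + θ (ss c) :=
  ind_two io_inj (fun e => h (mul_left_cancel₀ (two_ne (F := F)) (by
    have := congrArg (fun z : (Kq F)ˣ => z.1.im) e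
    simp only [ss_im] at this
    linear_combination this))) (io_ss c) (fun _ _ => io_conj) fun _ => io_cent h

theorem II_io {c : (Kq F)ˣ} (h : c.1.im ≠ 0) : II f (io c) = 0 :=
  indFun_eq_zero_of_forall _ fun x hx => absurd hx (io_not_B h x)

theorem sum_K (g : (Kq F)ˣ → ℂ) : (∑ c, if c.1.im = 0 then g c else 0) = ∑ a, g (jj a) := by
  rw [← Finset.sum_filter]
  exact (Finset.sum_bij (fun a _ => jj a) (by simp) (fun _ _ _ _ e => jj_inj e)
    (fun c hc => (eq_jj (by simpa using hc)).imp fun a e => ⟨by simp, e⟩) fun _ _ => rfl).symm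

omit hF in
theorem St_B (a d : Fˣ) (b : F) : St (gl2mk (a : F) b 0 d (by simp)) =
    if a = d then if b = 0 then (Fintype.card F : ℂ) else 0 else 1 := by
  rw [St, Pi.sub_apply, II_B, add_sub_cancel_left]
  split_ifs with h k
  · simp [h, k]
  · simp [h, k]
  · rw [Finset.sum_eq_single (-b / (a - d))]
    · rw [if_pos]; field_simp [sub_ne_zero.2 (Units.val_injective.ne h)]; ring
    · refine fun c _ n => if_neg fun e => n ?_
      rw [eq_div_iff (sub_ne_zero.2 (Units.val_injective.ne h))]; linear_combination e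
    · simp

/-- the Gelfand-Graev character -/
noncomputable def AA (θ : (Kq F)ˣ → ℂ) : GL (Fin 2) F → ℂ := II (fun p => θ (jj p.1)) * (St - fun _ => 1)

theorem AA_class : IsClassFunction _ (AA θ) :=
  II_class.mul (St_virt.isClassFunction.sub (isClassFunction_const 1))

theorem AA_B (a d : Fˣ) (b : F) : AA θ (gl2mk (a : F) b 0 d (by simp)) =
    if a = d then (if b = 0 then (Fintype.card F + 1 : ℂ) * (Fintype.card F - 1) else -1) * θ (jj a) else 0 := by
  rw [AA, Pi.mul_apply, Pi.sub_apply, St_B, II_B]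
  split_ifs with h k
  · simp [h, k]; ring
  · simp [h, k]
  · simp

theorem AA_io (c : (Kq F)ˣ) :
    AA θ (io c) = if c.1.im = 0 then (Fintype.card F + 1 : ℂ) * (Fintype.card F - 1) * θ c else 0 := by
  split_ifs with h
  · obtain ⟨a, rfl⟩ := eq_jj h
    rw [io_jj, dg, AA_B]; simp
  · rw [AA, Pi.mul_apply, II_io h, zero_mul]

theorem ci_AA_AA : ⟪AA θ, AA θ'⟫ = Fintype.card F / (Fintype.card F - 1) * ∑ a, θ (jj a) * conj (θ' (jj a)) := by
  have a2 := q1_ne' (F := F)
  rw [AA, ci_mul_left, ci_II ((St_virt.isClassFunction.sub (isClassFunction_const 1)).conjFun.mul AA_class)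
    (k := fun p => if p.1 = p.2 then Fintype.card F * (Fintype.card F - 1) * θ' (jj p.1) else 0), ci_def, card_D,
    Fintype.sum_prod_type, Finset.mul_sum, Finset.mul_sum]
  · refine Finset.sum_congr rfl fun a _ => ?_
    simp only [apply_ite conj, map_zero, mul_ite, mul_zero, Finset.sum_ite_eq, Finset.mem_univ, if_true, map_mul,
      map_sub, map_natCast, map_one]
    field_simp
  · intro a d
    simp only [Pi.mul_apply, conjFun_apply, Pi.sub_apply, St_B, AA_B]
    split_ifs with h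
    · rw [Finset.sum_congr rfl (g := fun b => θ' (jj a) + if b = 0 then ((Fintype.card F + 1 : ℂ) *
        (Fintype.card F - 1) ^ 2 - 1) * θ' (jj a) else 0) fun b _ => by split_ifs <;> [(simp; ring); simp]]
      simp [Finset.sum_add_distrib]; ring
    · simp

theorem ci_ind_AA : ⟪ind io θ, AA θ'⟫ = ∑ a, θ (jj a) * conj (θ' (jj a)) := by
  have a1 := q1_ne (F := F)
  have a2 := q1_ne' (F := F)
  rw [ci_ind_left _ _ AA_class, ci_def, card_K', ← sum_K fun c => θ c * conj (θ' c), Finset.mul_sum]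
  refine Finset.sum_congr rfl fun c _ => ?_
  rw [AA_io]
  split_ifs
  · simp only [map_mul, map_sub, map_add, map_natCast, map_one]
    field_simp
  · simp

theorem ci_ind_ind : ⟪ind io θ, ind io θ'⟫ = ⟪θ, θ'⟫ + ⟪θ, θ' ∘ ss⟫ +
    (Fintype.card F - 2) / (Fintype.card F - 1) * ∑ a, θ (jj a) * conj (θ' (jj a)) := by
  have a1 := q1_ne (F := F)
  have a2 := q1_ne' (F := F)
  rw [ci_ind_left _ _ (isClassFunction_ind _ _), ci_def, ci_def, ci_def, card_K', ← sum_K fun c => θ c * conj (θ' c)]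
  simp only [Finset.mul_sum, ← Finset.sum_add_distrib]
  refine Finset.sum_congr rfl fun c _ => ?_
  split_ifs with h
  · obtain ⟨a, rfl⟩ := eq_jj h
    simp only [io_jj, ind_jj, comp, ss_jj, map_mul, map_sub, map_natCast, map_one]
    field_simp
    ring
  · simp [ind_io h, mul_add]

/-- the discrete series -/
noncomputable def WW (θ : (Kq F)ˣ → ℂ) : GL (Fin 2) F → ℂ := AA θ - ind io θ

theorem ci_WW : ⟪WW θ, WW θ'⟫ = ⟪θ, θ'⟫ + ⟪θ, θ' ∘ ss⟫ := by
  have a2 := q1_ne' (F := F)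
  rw [WW, WW, ci_sub_left, ci_sub_right, ci_sub_right, ci_AA_AA, ci_ind_AA, ci_ind_ind, ← ci_conj_symm (ind _ _),
    ci_ind_AA, map_sum]
  simp only [map_mul, Complex.conj_conj, mul_comm (conj (θ' _))]
  field_simp
  ring

theorem ci_WW_one : ⟪WW θ, fun _ => 1⟫ = -⟪θ, fun _ => 1⟫ := by
  have e : conjFun (St (F := F) - fun _ => 1) * (fun _ => 1) = II (fun _ => 1) - ((fun _ => 1) + fun _ => 1) := by
    have : conjFun (II (F := F) fun _ => 1) = II fun _ => 1 := by
      rw [II, conjFun_indFun]; congr 1; funext g; simp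
    funext g
    have := congrFun this g
    rw [conjFun_apply] at this
    simp [St, this, sub_sub]
  rw [WW, ci_sub_left, AA, ci_mul_left, e, ci_sub_right, ci_add_right, ci_II_II, ci_II_one,
    ci_ind_left _ _ (isClassFunction_const 1)]
  simp [comp_def]

theorem WW_virt (h : IsGeneralizedCharacter _ θ) : IsGeneralizedCharacter _ (WW θ) :=
  ((II_virt (f := fun p => θ (jj p.1)) (h.comp (jj.comp (MonoidHom.fst Fˣ Fˣ)))).mul (St_virt.sub virt_one)).sub
    (h.ind _)

theorem WW_sub : WW (θ - θ') = WW θ - WW θ' := by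
  rw [WW, WW, WW, ind_sub, AA, AA, AA, sub_sub_sub_comm, ← sub_mul, ← II_sub]; rfl

theorem WW_sc (a : Fˣ) : WW θ (dg a a) = (Fintype.card F - 1) * θ (jj a) := by
  rw [WW, Pi.sub_apply, ind_jj, dg, AA_B]; simp; ring

theorem WW_u : WW θ (dg 1 (-1)) = 0 := by
  have n : (1 : Fˣ) ≠ -1 := fun e => two_ne (F := F) (by
    have := congrArg Units.val e
    simp only [Units.val_neg, Units.val_one] at this
    linear_combination this)
  rw [WW, Pi.sub_apply, dg, AA_B, if_neg n, ind_eq_zero_of_forall, sub_zero]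
  intro x c e
  obtain ⟨e1, e2⟩ := tr_conj e
  simp only [io_eq, gl2mk00, gl2mk01, gl2mk10, gl2mk11, Units.val_neg, Units.val_one] at e1 e2
  have r : c.1.re = 0 := mul_left_cancel₀ (two_ne (F := F)) (by linear_combination e1)
  exact absurd (by rw [r] at e2; linear_combination e2) (nsq c.1.im)

theorem WW_mul (a : Fˣ) (h : ∀ c, θ (c * jj a) = θ c) (y : GL (Fin 2) F) : WW θ (y * dg a a) = WW θ y := by
  have k : ∀ f : Fˣ × Fˣ → ℂ, (∀ p, f (p * (a, a)) = f p) → II f (y * dg a a) = II f y := fun f e => by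
    rw [II, indFun_eq_ind]
    exact ind_mul_central (f := (gl2B F).subtype) ⟨dg a a, rfl⟩ (dg_comm a) (fun b => by
      rw [map_mul, prB_eq (g := ⟨dg a a, rfl⟩) rfl rfl, e]) y
  simp only [WW, AA, St, Pi.sub_apply, Pi.mul_apply]
  rw [k _ fun p => by simp [h], k _ fun _ => rfl, ← io_jj,
    ind_mul_central _ (fun x => by rw [io_jj, dg_comm]) h]

theorem jj_neg : jj (-1 : Fˣ) = -1 := kext (by simp) (by simp)

theorem WW_supp (h : ∀ c, θ c ≠ 0 → -1 ∈ zpowers c) {y : GL (Fin 2) F} (n : WW θ y ≠ 0) :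
    dg (-1) (-1) ∈ zpowers y := by
  have k : ∀ x c, θ c ≠ 0 → io c ∈ zpowers (x⁻¹ * y * x) → dg (-1) (-1) ∈ zpowers y := fun x c n e => by
    have := zp_conj x⁻¹ (zpowers_le.2 e (mem_map_of_mem io (h c n) |> (MonoidHom.map_zpowers _ _).le))
    rwa [← jj_neg, io_jj, show x⁻¹⁻¹ * (x⁻¹ * y * x) * x⁻¹ = y by group, mul_assoc, dg_comm, inv_mul_cancel_left]
      at this
  by_cases e : ind io θ y = 0
  · rw [WW, Pi.sub_apply, e, sub_zero] at n
    have := left_ne_zero_of_mul n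
    rw [II, indFun_eq_ind] at this
    obtain ⟨x, b, e, -⟩ := ind_ne this
    obtain ⟨⟨a, d, b⟩, rfl⟩ := gl2BEquiv.symm.surjective b
    replace e : gl2mk (a : F) b 0 d (by simp) = _ := e
    rw [← AA_class.conj' y x, ← e, AA_B] at n
    obtain rfl : a = d := by by_contra k; exact n (if_neg k)
    rw [if_pos rfl] at n
    refine k x _ (right_ne_zero_of_mul n) ⟨(Fintype.card F : ℕ), ?_⟩
    have : gl2mk (a : F) b 0 a (by simp) = dg a a * xu (b / a) := by
      simp [gl2_eq_iff, gl2_mul, dg, xu, mul_div_cancel₀]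
    have p : a ^ Fintype.card F = a := Units.ext (by simp [FiniteField.pow_card])
    simp only [← e, this, zpow_natCast]
    rw [Commute.mul_pow (dg_comm _ _), xu_pow, dg_pow, p, io_jj]
    simp [xu_zero]
  · obtain ⟨x, c, e, n⟩ := ind_ne e
    exact k x c n (e ▸ mem_zpowers _)

theorem q4 : Fintype.card F % 4 = 3 := by
  by_contra n
  obtain ⟨r, e⟩ := FiniteField.isSquare_neg_one_iff.2 n
  exact nsq r (by rw [e, sq])

theorem sq_odd (a : Fˣ) : Odd (orderOf (a * a)) := by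
  have := q4 (F := F)
  refine Odd.of_dvd_nat (n := 2 * (Fintype.card F / 4) + 1) ⟨_, rfl⟩ (orderOf_dvd_of_pow_eq_one ?_)
  rw [← sq, ← pow_mul, show 2 * (2 * (Fintype.card F / 4) + 1) = Fintype.card Fˣ by rw [Fintype.card_units]; omega,
    pow_card_eq_one]

theorem pow_q (c : (Kq F)ˣ) : c ^ Fintype.card F = ss c := by
  have := q4 (F := F)
  have w : (QuadraticAlgebra.omega : Kq F) ^ Fintype.card F = -QuadraticAlgebra.omega := by
    rw [show Fintype.card F = 2 * (2 * (Fintype.card F / 4) + 1) + 1 by omega, pow_succ, pow_mul, sq,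
      show (QuadraticAlgebra.omega : Kq F) * QuadraticAlgebra.omega = -1 by ext <;> simp, Odd.neg_one_pow ⟨_, rfl⟩]
    simp
  have e : c.1 = algebraMap F _ c.1.re + c.1.im • QuadraticAlgebra.omega := by ext <;> simp
  have := congrArg (FiniteField.frobeniusAlgHom F (Kq F)) e
  rw [map_add, map_smul, AlgHom.commutes, FiniteField.frobeniusAlgHom_apply, FiniteField.frobeniusAlgHom_apply, w]
    at this
  exact kext (by simp [this]) (by simp [this])

theorem neg_mem {c : (Kq F)ˣ} (h : ¬Odd (orderOf c)) : -1 ∈ zpowers c := by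
  obtain ⟨i, m, e, n⟩ := exists_inv h
  have := ((Units.inv_eq_self_iff i).1 (inv_eq_of_mul_eq_one_right e)).resolve_left n
  subst this
  exact m

theorem exists_theta : ∃ μ : (Kq F)ˣ →* ℂˣ, (∀ c, Odd (orderOf c) → μ c = 1) ∧ μ (-1) = -1 ∧ μ ^ 4 ≠ 1 := by
  have n : (-1 : (Kq F)ˣ) ≠ 1 := fun e => two_ne (F := F) (by
    have := congrArg (fun z : (Kq F)ˣ => z.1.re) e
    simp only [Units.val_neg, Units.val_one, QuadraticAlgebra.re_neg, QuadraticAlgebra.re_one] at this
    linear_combination -this)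
  obtain ⟨χ, hχ⟩ := CommGroup.exists_apply_ne_one_of_hasEnoughRootsOfUnity _ ℂ n
  obtain ⟨k, m, o, e⟩ := Nat.exists_eq_two_pow_mul_odd (Nat.card_pos (α := (Kq F)ˣ)).ne'
  have a1 : ∀ c, Odd (orderOf c) → (χ ^ m) c = 1 := fun c hc => by
    rw [MonoidHom.pow_apply, ← map_pow, orderOf_dvd_iff_pow_eq_one.1 (((Nat.coprime_two_right.2 hc).pow_right
      k).dvd_of_dvd_mul_left (e ▸ orderOf_dvd_natCard c)), map_one]
  have a2 : (χ ^ m) (-1) = -1 := by
    rw [MonoidHom.pow_apply, ((Units.inv_eq_self_iff _).1 (by simp [← map_inv])).resolve_left hχ, o.neg_one_pow]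
  refine ⟨χ ^ m, a1, a2, fun k => ?_⟩
  have z : (⟨1, 1⟩ : Kq F) ≠ 0 := fun e => one_ne_zero (congrArg QuadraticAlgebra.re e)
  have := DFunLike.congr_fun k (.mk0 _ z)
  rw [MonoidHom.pow_apply, ← map_pow, show Units.mk0 _ z ^ 4 = -1 * jj (.mk0 2 two_ne * .mk0 2 two_ne) from
    kext (by simp [pow_succ]; ring) (by simp [pow_succ]), map_mul, a2, a1 _ (by
      rw [orderOf_injective jj jj_inj]; exact sq_odd _)] at this
  have := congrArg Units.val this
  norm_num at this

end Cfsg.Agent.B84V
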